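import Mathlib
import Cfsg.Agent.S0938
import Cfsg.Agent.Lib.Helper80.BlockBasic
import Cfsg.Agent.Lib.Helper77.Frobenius
import Cfsg.Prelude.Def_BlockRank
import Cfsg.Prelude.Def_Transfer

set_option autoImplicit false

namespace Cfsg.Agent.Lib.Helper42

open Cfsg

variable {G : Type*} [Group G]

/-- The kernel of the principal block, packaged: a normal subgroup of order prime to `p`
containing every normal subgroup of order prime to `p`. -/
theorem exists_principal_ker [Finite G] (p : ℕ) [Fact p.Prime] (M : Ideal AlgInt)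
    (hM : IsPModular p M) :
    ∃ K : Subgroup G, K.Normal ∧ (K : Set G) = blockKer (principalBlock M G) ∧
      ¬ p ∣ Nat.card K ∧ ∀ N : Subgroup G, N.Normal → ¬ p ∣ Nat.card N → N ≤ K := by
  obtain ⟨K, hKn, hK, hKp, -, hmax⟩ := Cfsg.Agent.S0938.result p M hM (principalBlock M G)
    (Lib.Helper80.isPBlock_principal M) (Lib.Helper80.trivIrr G)
    (Lib.Helper80.trivIrr_mem_principalBlock hM)
  exact ⟨K, hKn, hK, hKp, fun N hN hNp => hmax N hN hNp (fun g _ => rfl)⟩

theorem pRegularPart_triv_ne_zero (p : ℕ) [hp : Fact p.Prime] :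
    pRegularPart p (fun _ : G => (1 : ℂ)) ≠ 0 := by
  intro h
  have h1 := congrFun h 1
  have hreg : IsPRegular p (1 : G) := by
    unfold IsPRegular
    rw [orderOf_one]
    exact hp.out.one_lt.ne' ∘ Nat.dvd_one.1
  simp [pRegularPart, hreg] at h1

/-- `G` has a normal `p`-complement iff the principal block has `p`-regular rank one. -/
theorem hasNormalPComplement_iff_blockRank [Finite G] (p : ℕ) [hp : Fact p.Prime]
    (M : Ideal AlgInt) (hM : IsPModular p M) :
    HasNormalPComplement p G ↔ blockRank p (principalBlock M G) = 1 := by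
  obtain ⟨K, hKn, hK, hKp, hmax⟩ := exists_principal_ker (G := G) p M hM
  set v₀ : G → ℂ := pRegularPart p (fun _ : G => (1 : ℂ)) with hv₀
  have hv₀ne : v₀ ≠ 0 := pRegularPart_triv_ne_zero p
  have hmemK : ∀ g : G, g ∈ K ↔ ∀ χ ∈ principalBlock M G, (χ : G → ℂ) g = (χ : G → ℂ) 1 := by
    intro g
    rw [← SetLike.mem_coe, hK]; rfl
  have htriv : v₀ ∈ (fun χ : IrrCharacter G => pRegularPart p (χ : G → ℂ)) '' principalBlock M G :=
    ⟨Lib.Helper80.trivIrr G, Lib.Helper80.trivIrr_mem_principalBlock hM, rfl⟩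
  constructor
  · rintro ⟨P, N, hN, hc⟩
    obtain ⟨hcop, k, hk⟩ := Lib.Helper77.npc_of_isComplement' P hc
    have hNp : ¬ p ∣ Nat.card N := fun h =>
      hp.out.one_lt.ne' (Nat.Coprime.eq_one_of_dvd hcop.symm h)
    have hNK : N ≤ K := hmax N hN hNp
    have hspan : Submodule.span ℂ
        ((fun χ : IrrCharacter G => pRegularPart p (χ : G → ℂ)) '' principalBlock M G)
        = Submodule.span ℂ {v₀} := by
      apply le_antisymm
      · rw [Submodule.span_le]
        rintro _ ⟨χ, hχ, rfl⟩
        rw [SetLike.mem_coe, Submodule.mem_span_singleton]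
        refine ⟨(χ : G → ℂ) 1, ?_⟩
        funext g
        by_cases hg : IsPRegular p g
        · have hgN : g ∈ N := Lib.Helper77.mem_of_coprime_of_index_pow N hk g
            ((Nat.Prime.coprime_iff_not_dvd hp.out).2 hg).symm
          have := (hmemK g).1 (hNK hgN) χ hχ
          simp [hv₀, pRegularPart, hg, this]
        · simp [hv₀, pRegularPart, hg]
      · rw [Submodule.span_le, Set.singleton_subset_iff]
        exact Submodule.subset_span htriv
    unfold blockRank
    rw [hspan]
    exact finrank_span_singleton hv₀ne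
  · intro h
    unfold blockRank at h
    set V := Submodule.span ℂ
        ((fun χ : IrrCharacter G => pRegularPart p (χ : G → ℂ)) '' principalBlock M G) with hV
    have hv₀V : v₀ ∈ V := Submodule.subset_span htriv
    have hreg1 : IsPRegular p (1 : G) := by
      unfold IsPRegular
      rw [orderOf_one]
      exact hp.out.one_lt.ne' ∘ Nat.dvd_one.1
    have hall : ∀ g : G, IsPRegular p g → g ∈ K := by
      intro g hg
      rw [hmemK]
      intro χ hχ
      have hχV : pRegularPart p (χ : G → ℂ) ∈ V := Submodule.subset_span ⟨χ, hχ, rfl⟩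
      have hne : (⟨v₀, hv₀V⟩ : V) ≠ 0 := fun h0 => hv₀ne (congrArg Subtype.val h0)
      obtain ⟨c, hc⟩ := (finrank_eq_one_iff_of_nonzero' (⟨v₀, hv₀V⟩ : V) hne).1 h
        ⟨pRegularPart p (χ : G → ℂ), hχV⟩
      have hc' : c • v₀ = pRegularPart p (χ : G → ℂ) := congrArg Subtype.val hc
      have e1 := congrFun hc' 1
      have eg := congrFun hc' g
      simp [hv₀, pRegularPart, hreg1] at e1
      simp [hv₀, pRegularPart, hg] at eg
      rw [← eg, ← e1]
    have hpg : IsPGroup p (G ⧸ K) := by
      intro x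
      obtain ⟨g, rfl⟩ := QuotientGroup.mk_surjective x
      obtain ⟨n, m, hm, hnm⟩ := Nat.exists_eq_pow_mul_and_not_dvd (orderOf_pos g).ne' p
        hp.out.ne_one
      refine ⟨n, ?_⟩
      rw [← QuotientGroup.mk_pow, QuotientGroup.eq_one_iff]
      apply hall
      unfold IsPRegular
      rw [orderOf_pow_of_dvd (pow_ne_zero _ hp.out.ne_zero) ⟨m, hnm⟩, hnm,
        Nat.mul_div_cancel_left _ (pow_pos hp.out.pos _)]
      exact hm
    obtain ⟨k, hk⟩ := IsPGroup.iff_card.1 hpg
    obtain ⟨P⟩ : Nonempty (Sylow p G) := inferInstance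
    refine ⟨P, K, hKn, Lib.Helper77.isComplement'_of_npc
      ((Nat.Prime.coprime_iff_not_dvd hp.out).2 hKp).symm (k := k) ?_ P⟩
    rw [Subgroup.index_eq_card, hk]

end Cfsg.Agent.Lib.Helper42
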