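import Cfsg.Agent.Lib.Helper84.RO.Defs
import Cfsg.Agent.Lib.Helper82.Linear
import Cfsg.Agent.Lib.Helper19.DetChar
import Cfsg.Agent.Lib.Helper77.GlaubCore
import Cfsg.Agent.Lib.Helper79.DegreeRatio

set_option autoImplicit false

namespace Cfsg.Agent.Lib.Helper42.RO

open Cfsg Cfsg.Agent.Lib.Helper5 Cfsg.Agent.Lib.Helper84.RO Cfsg.Agent.Lib.Helper19
open scoped ComplexConjugate

/-- [EX] -/
theorem exists_rl_of_ro {Y L₀ : Type*} [Group Y] [Finite Y] [Group L₀] [Finite L₀] (j : L₀ →* Y)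
    (θ : L₀ → ℂ)
    (hθ : IsRL θ) (ξ : Y → ℂ) (hξ : IsCharacter Y ξ) (hro : IsRO ξ)
    (hres : ∀ l : L₀, ξ (j l) = ξ 1 * θ l) : ∃ μ : Y → ℂ, IsRL μ ∧ ∀ l : L₀, μ (j l) = θ l := by
  have hξ' := hξ
  obtain ⟨k, ρ, rfl⟩ := hξ
  have hk1 : ρ.character 1 = (k : ℂ) := by
    rw [Representation.char_one]; simp
  have hkodd : Odd k := by
    have := hro.2
    unfold charDegree at this
    rw [hk1] at this
    simpa using this
  obtain ⟨f, hf⟩ := exists_hom_of_linear θ ⟨hθ.1, hθ.2.1⟩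
  refine ⟨homFun (detHom ρ), ⟨(isCharacter_homFun _).1, (isCharacter_homFun _).2, ?_⟩, ?_⟩
  · intro g
    have h1 := Cfsg.Agent.Lib.Helper77.detChar_ringHom_comp (starRingEnd ℂ) hξ'
    have h2 : (fun g => (starRingEnd ℂ) (ρ.character g)) = ρ.character := by
      funext g
      exact Complex.conj_eq_iff_im.mpr (hro.1 g)
    rw [h2, detChar_eq_homFun] at h1
    have h3 := congrFun h1 g
    exact Complex.conj_eq_iff_im.mp h3.symm
  · intro l
    let ρ' : Representation ℂ L₀ (Fin k → ℂ) := MonoidHom.comp ρ j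
    have h1 := Cfsg.Agent.Lib.Helper79.scalar_of_character_eq ρ' (⊤ : Subgroup L₀)
      (f.comp (⊤ : Subgroup L₀).subtype) (by
        intro x
        have h2 := hres x
        rw [hk1, hf] at h2
        exact h2) ⟨l, Subgroup.mem_top l⟩
    have h2 : ρ (j l) = ((f l : ℂˣ) : ℂ) • LinearMap.id := h1
    have hsq : θ l * θ l = 1 := by
      have h3 := Cfsg.Agent.Lib.Helper82.isChar_linear_mul_conj hθ.1 hθ.2.1 l
      have h4 : conj (θ l) = θ l := Complex.conj_eq_iff_im.mpr (hθ.2.2 l)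
      rwa [h4] at h3
    rw [homFun_apply, detHom_apply, h2, LinearMap.det_smul, LinearMap.det_id, mul_one,
      Module.finrank_fin_fun]
    have h5 : ((f l : ℂˣ) : ℂ) = θ l := by rw [hf]; rfl
    rw [h5]
    obtain ⟨m, rfl⟩ := hkodd
    rw [pow_succ, pow_mul, pow_two, hsq, one_pow, one_mul]

end Cfsg.Agent.Lib.Helper42.RO
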